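import Cfsg.Agent.Clifford.Model
import Cfsg.Agent.PGroup.Extraspecial

/-!
The extension of an orthogonal group of plus type by an extraspecial 2-group, inside the real
matrices.
-/

set_option autoImplicit false

namespace Cfsg.Agent.Clifford

open Matrix

variable {U : Type*} [AddCommGroup U] [Module (ZMod 2) U] [Finite U] {n : ℕ} (D : Model U n)
  {K : Type*} [Group K] (ρ : Representation (ZMod 2) K U)

/-- the monomial matrix as a unit -/
noncomputable def Model.unit (u : U) : (Matrix (Model.Idx n) (Model.Idx n) ℝ)ˣ where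
  val := D.mat u
  inv := sgn (D.form u) • D.mat u
  val_inv := by rw [mul_smul_comm, D.mat_sq, smul_smul, sgn_mul_self, one_smul]
  inv_val := by rw [smul_mul_assoc, D.mat_sq, smul_smul, sgn_mul_self, one_smul]

theorem Model.abs_det_mat (u : U) : |(D.mat u).det| = 1 := by
  have h := congrArg (fun M => |M.det|) (D.mat_sq u)
  simp only [det_mul, det_smul, det_one, mul_one, abs_mul, abs_pow, sgn_abs, one_pow] at h
  nlinarith [abs_nonneg (D.mat u).det]

/-- the group of the extension -/
noncomputable def extGroup : Subgroup (Matrix (Model.Idx n) (Model.Idx n) ℝ)ˣ where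
  carrier := {g | |g.val.det| = 1 ∧ ∃ k : K, ∀ u, ∃ a : ZMod 2,
    g.val * D.mat u = sgn a • (D.mat (ρ k u) * g.val)}
  one_mem' := ⟨by simp, 1, fun u => ⟨0, by simp⟩⟩
  mul_mem' := by
    rintro g h ⟨hg, k, hk⟩ ⟨hh, l, hl⟩
    refine ⟨by simp [abs_mul, hg, hh], k * l, fun u => ?_⟩
    obtain ⟨a, ha⟩ := hl u
    obtain ⟨b, hb⟩ := hk (ρ l u)
    refine ⟨a + b, ?_⟩
    rw [Units.val_mul, mul_assoc, ha, mul_smul_comm, ← mul_assoc, hb, smul_mul_assoc, smul_smul,
      ← sgn_add, mul_assoc, map_mul, Module.End.mul_apply]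
  inv_mem' := by
    rintro g ⟨hg, k, hk⟩
    refine ⟨?_, k⁻¹, fun u => ?_⟩
    · have h := congrArg (fun M => |M.det|) g.mul_inv
      simpa [abs_mul, hg] using h
    · obtain ⟨a, ha⟩ := hk (ρ k⁻¹ u)
      rw [Representation.self_inv_apply] at ha
      refine ⟨a, ?_⟩
      have h2 : D.mat u * g.val = sgn a • (g.val * D.mat (ρ k⁻¹ u)) := by
        rw [ha, smul_smul, sgn_mul_self, one_smul]
      calc g⁻¹.val * D.mat u = g⁻¹.val * (D.mat u * g.val) * g⁻¹.val := by
            rw [mul_assoc, mul_assoc, Units.mul_inv, mul_one]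
        _ = sgn a • (D.mat (ρ k⁻¹ u) * g⁻¹.val) := by
            rw [h2, mul_smul_comm, smul_mul_assoc, ← mul_assoc g⁻¹.val, Units.inv_mul, one_mul]

variable {D ρ}

theorem mem_extGroup {g : (Matrix (Model.Idx n) (Model.Idx n) ℝ)ˣ} :
    g ∈ extGroup D ρ ↔ |g.val.det| = 1 ∧ ∃ k : K, ∀ u, ∃ a : ZMod 2,
      g.val * D.mat u = sgn a • (D.mat (ρ k u) * g.val) := Iff.rfl

theorem key_unique (hρ : Function.Injective ρ) {g : (Matrix (Model.Idx n) (Model.Idx n) ℝ)ˣ}
    {k l : K} (hk : ∀ u, ∃ a : ZMod 2, g.val * D.mat u = sgn a • (D.mat (ρ k u) * g.val))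
    (hl : ∀ u, ∃ a : ZMod 2, g.val * D.mat u = sgn a • (D.mat (ρ l u) * g.val)) : k = l := by
  refine hρ (LinearMap.ext fun u => ?_)
  obtain ⟨a, ha⟩ := hk u
  obtain ⟨b, hb⟩ := hl u
  refine (D.sgn_smul_mat_injective (a := a) (b := b) (g.isUnit.mul_right_cancel ?_)).2
  rw [smul_mul_assoc, smul_mul_assoc, ← ha, ← hb]

variable (D ρ) in
/-- the map onto the group acting -/
noncomputable def proj (hρ : Function.Injective ρ) : extGroup D ρ →* K where
  toFun g := (g.2.2).choose
  map_one' := key_unique hρ ((1 : extGroup D ρ).2.2).choose_spec fun u => ⟨0, by simp⟩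
  map_mul' g h := by
    refine key_unique hρ ((g * h).2.2).choose_spec fun u => ?_
    obtain ⟨a, ha⟩ := (h.2.2).choose_spec u
    obtain ⟨b, hb⟩ := (g.2.2).choose_spec (ρ (h.2.2).choose u)
    refine ⟨a + b, ?_⟩
    rw [Subgroup.coe_mul, Units.val_mul, mul_assoc, ha, mul_smul_comm, ← mul_assoc, hb,
      smul_mul_assoc, smul_smul, ← sgn_add, mul_assoc, map_mul, Module.End.mul_apply]

theorem proj_spec (hρ : Function.Injective ρ) (g : extGroup D ρ) (u : U) :
    ∃ a : ZMod 2, g.1.val * D.mat u = sgn a • (D.mat (ρ (proj D ρ hρ g) u) * g.1.val) :=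
  (g.2.2).choose_spec u

theorem proj_eq (hρ : Function.Injective ρ) {g : extGroup D ρ} {k : K}
    (h : ∀ u, ∃ a : ZMod 2, g.1.val * D.mat u = sgn a • (D.mat (ρ k u) * g.1.val)) :
    proj D ρ hρ g = k :=
  key_unique hρ (proj_spec hρ g) h

theorem mat_comm (v u : U) :
    D.mat v * D.mat u = sgn (D.coc v u + D.coc u v) • (D.mat u * D.mat v) := by
  rw [D.mat_mul, D.mat_mul, smul_smul, ← sgn_add, add_comm v u]
  congr 2
  rw [add_assoc, zmod2_double, add_zero]

theorem proj_surjective (hρ : Function.Injective ρ) (hq : ∀ k u, D.form (ρ k u) = D.form u) :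
    Function.Surjective (proj D ρ hρ) := by
  classical
  intro k
  haveI : Fintype U := Fintype.ofFinite U
  haveI : Module.Finite (ZMod 2) U := Module.Finite.of_finite
  let δ : U →ₗ[ZMod 2] U →ₗ[ZMod 2] ZMod 2 :=
    LinearMap.mk₂ (ZMod 2) (fun u v => D.coc (ρ k u) (ρ k v) + D.coc u v)
      (fun u u' v => by simp only [map_add, D.coc_add_left]; ring)
      (fun c u v => by
        rcases zmod2_cases c with rfl | rfl
        · simp [D.coc_zero_left]
        · simp)
      (fun u v v' => by simp only [map_add, D.coc_add_right]; ring)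
      (fun c u v => by
        rcases zmod2_cases c with rfl | rfl
        · simp [Model.coc]
        · simp)
  obtain ⟨s, hs⟩ := exists_split δ fun u => by
    show D.coc (ρ k u) (ρ k u) + D.coc u u = 0
    rw [show D.coc (ρ k u) (ρ k u) = D.coc u u from hq k u, zmod2_double]
  have hs0 : s 0 = 0 := by
    have h := hs 0 0
    simp only [add_zero, map_zero, LinearMap.zero_apply, zmod2_double] at h
    exact h
  obtain ⟨g, hdet, hg⟩ := D.exists_intertwiner (fun u => sgn (s u) • D.mat (ρ k u))
    (by simp [hs0, D.mat_zero])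
    (fun u v => by
      rw [smul_mul_assoc, mul_smul_comm, D.mat_mul, smul_smul, smul_smul, smul_smul, ← map_add,
        ← sgn_add, ← sgn_add, ← sgn_add, hs u v]
      congr 2
      show _ = _ + (_ + _ + (D.coc (ρ k u) (ρ k v) + D.coc u v))
      have := zmod2_double (D.coc u v)
      linear_combination -this)
  have hpos : 0 < |g.det| := abs_pos.mpr hdet
  let N := Fintype.card (Model.Idx n)
  let c : ℝ := |g.det| ^ ((-1 : ℝ) / N)
  have hc : c ^ N * |g.det| = 1 := by
    rw [← Real.rpow_natCast, ← Real.rpow_mul hpos.le,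
      div_mul_cancel₀ _ (Nat.cast_ne_zero.mpr Fintype.card_ne_zero), Real.rpow_neg_one,
      inv_mul_cancel₀ hpos.ne']
  have hcpos : 0 < c := Real.rpow_pos_of_pos hpos _
  have hdet' : |(c • g).det| = 1 := by
    rw [det_smul, abs_mul, abs_pow, abs_of_pos hcpos]; exact hc
  have hne : (c • g).det ≠ 0 := fun e => by rw [e, abs_zero] at hdet'; exact zero_ne_one hdet'
  let G : (Matrix (Model.Idx n) (Model.Idx n) ℝ)ˣ :=
    ((Matrix.isUnit_iff_isUnit_det _).mpr (isUnit_iff_ne_zero.mpr hne)).unit
  have hG : G.val = c • g := IsUnit.unit_spec _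
  have hk : ∀ u, ∃ a : ZMod 2, G.val * D.mat u = sgn a • (D.mat (ρ k u) * G.val) := fun u =>
    ⟨s u, by rw [hG, smul_mul_assoc, hg u, mul_smul_comm, smul_mul_assoc, smul_smul, smul_smul,
      mul_comm]⟩
  exact ⟨⟨G, ⟨by rw [hG]; exact hdet', k, hk⟩⟩, proj_eq hρ hk⟩

theorem unit_mem (v : U) : D.unit v ∈ extGroup D ρ :=
  ⟨D.abs_det_mat v, 1, fun u => ⟨D.coc v u + D.coc u v, by
    rw [map_one, Module.End.one_apply]; exact mat_comm v u⟩⟩

theorem ker_spec (hρ : Function.Injective ρ)
    (hnd : ∀ s : U →+ ZMod 2, ∃ v, ∀ u, D.coc v u + D.coc u v = s u) (g : extGroup D ρ) :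
    g ∈ (proj D ρ hρ).ker ↔ ∃ x : ZMod 2 × U, g.1.val = sgn x.1 • D.mat x.2 := by
  constructor
  · intro hg
    rw [MonoidHom.mem_ker] at hg
    have h := proj_spec hρ g
    simp only [hg, map_one, Module.End.one_apply] at h
    choose a ha using h
    have hadd : ∀ u v, a (u + v) = a u + a v := by
      intro u v
      have h1 : g.1.val * (D.mat u * D.mat v) =
          sgn (a u + a v) • (D.mat u * D.mat v * g.1.val) := by
        rw [← mul_assoc, ha u, smul_mul_assoc, mul_assoc, ha v, mul_smul_comm, smul_smul,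
          ← sgn_add, mul_assoc]
      rw [D.mat_mul, mul_smul_comm, ha, smul_mul_assoc, smul_smul, smul_smul] at h1
      have h2 : sgn (D.coc u v + a (u + v)) • D.mat (u + v) =
          sgn (a u + a v + D.coc u v) • D.mat (u + v) := by
        refine g.1.isUnit.mul_right_cancel ?_
        rw [smul_mul_assoc, smul_mul_assoc, sgn_add, sgn_add (a u + a v)]
        exact h1
      have h3 := (D.sgn_smul_mat_injective h2).1
      linear_combination h3
    obtain ⟨v, hv⟩ := hnd (AddMonoidHom.mk' a hadd)
    obtain ⟨c, hc⟩ := D.commutant (g := (D.unit v)⁻¹.val * g.1.val) (fun u => by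
      have hv' : D.coc v u + D.coc u v = a u := hv u
      have h1 : D.mat v * D.mat u = sgn (a u) • (D.mat u * D.mat v) := by
        rw [← hv']; exact mat_comm v u
      have h2 : (D.unit v)⁻¹.val * D.mat u = sgn (a u) • (D.mat u * (D.unit v)⁻¹.val) := by
        show (sgn (D.form v) • D.mat v) * D.mat u =
          sgn (a u) • (D.mat u * (sgn (D.form v) • D.mat v))
        rw [smul_mul_assoc, h1, mul_smul_comm, smul_comm]
      rw [mul_assoc, ha u, mul_smul_comm, ← mul_assoc, h2, smul_mul_assoc, smul_smul,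
        sgn_mul_self, one_smul, mul_assoc])
    have hg' : g.1.val = c • D.mat v := by
      have h := congrArg (fun M => (D.unit v).val * M) hc
      simp only [← mul_assoc, Units.mul_inv, one_mul] at h
      rw [h, mul_smul_comm, mul_one]
      rfl
    have hc1 : |c| = 1 := by
      have h := g.2.1
      rw [hg', det_smul, abs_mul, D.abs_det_mat, mul_one, abs_pow] at h
      exact (pow_eq_one_iff_of_nonneg (abs_nonneg c) Fintype.card_ne_zero).mp h
    rcases (abs_eq zero_le_one).mp hc1 with rfl | rfl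
    · exact ⟨(0, v), by rw [hg']; simp⟩
    · exact ⟨(1, v), by rw [hg']; simp⟩
  · rintro ⟨⟨a, v⟩, h⟩
    refine proj_eq hρ fun u => ⟨D.coc v u + D.coc u v, ?_⟩
    rw [h, map_one, Module.End.one_apply, smul_mul_assoc, mat_comm, smul_comm, mul_smul_comm]

/-- The extension exists. -/
theorem exists_extension (hn1 : 1 ≤ n) (hcard : Nat.card U = 2 ^ (2 * n))
    (hρ : Function.Injective ρ) (hq : ∀ k u, D.form (ρ k u) = D.form u)
    (hnd : ∀ s : U →+ ZMod 2, ∃ v, ∀ u, D.coc v u + D.coc u v = s u) :
    ∃ (R : Type) (_ : Group R) (_ : Finite R) (Q : Subgroup R) (hN : Q.Normal) (e : R ⧸ Q ≃* K)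
      (χ : ↥Q →* Multiplicative U), Cfsg.IsExtraspecial 2 ↥Q ∧ Nat.card ↥Q = 2 ^ (2 * n + 1) ∧
      Function.Surjective χ ∧ χ.ker = Subgroup.center ↥Q ∧
      (∀ (r : R) (a : ↥Q), χ ⟨r * a * r⁻¹, hN.conj_mem (a : R) a.2 r⟩ =
        Multiplicative.ofAdd (ρ (e (r : R ⧸ Q)) (Multiplicative.toAdd (χ a)))) ∧
      ∀ a : ↥Q, a * a = 1 ↔ D.form (Multiplicative.toAdd (χ a)) = 0 := by
  classical
  let φ := proj D ρ hρ
  let Q := φ.ker
  have hsp := fun x : Q => (ker_spec hρ hnd x.1).mp x.2
  choose f hf using hsp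
  have hf' : ∀ (x : Q) (y : ZMod 2 × U), x.1.1.val = sgn y.1 • D.mat y.2 → f x = y := by
    intro x y hy
    have h := D.sgn_smul_mat_injective ((hf x).symm.trans hy)
    exact Prod.ext h.1 h.2
  have fbij : Function.Bijective f := by
    constructor
    · intro x y h
      exact Subtype.ext (Subtype.ext (Units.ext (by rw [hf x, hf y, h])))
    · intro y
      let z : (Matrix (Model.Idx n) (Model.Idx n) ℝ)ˣ :=
        { val := sgn y.1 • D.mat y.2
          inv := sgn y.1 • (D.unit y.2)⁻¹.val
          val_inv := by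
            rw [smul_mul_assoc, mul_smul_comm, smul_smul, sgn_mul_self, one_smul]
            exact (D.unit y.2).mul_inv
          inv_val := by
            rw [smul_mul_assoc, mul_smul_comm, smul_smul, sgn_mul_self, one_smul]
            exact (D.unit y.2).inv_mul }
      have hz : z ∈ extGroup D ρ := by
        refine ⟨?_, 1, fun u => ⟨D.coc y.2 u + D.coc u y.2, ?_⟩⟩
        · show |(sgn y.1 • D.mat y.2).det| = 1
          rw [det_smul, abs_mul, abs_pow, sgn_abs, one_pow, one_mul, D.abs_det_mat]
        · show (sgn y.1 • D.mat y.2) * D.mat u = _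
          rw [map_one, Module.End.one_apply, smul_mul_assoc, mat_comm, smul_comm]
          show _ = sgn _ • (D.mat u * (sgn y.1 • D.mat y.2))
          rw [mul_smul_comm]
      exact ⟨⟨⟨z, hz⟩, (ker_spec hρ hnd _).mpr ⟨y, rfl⟩⟩, hf' _ _ rfl⟩
  have fmul : ∀ x y : Q,
      f (x * y) = ((f x).1 + (f y).1 + D.coc (f x).2 (f y).2, (f x).2 + (f y).2) := by
    intro x y
    refine hf' _ _ ?_
    simp only [Subgroup.coe_mul, Units.val_mul, hf x, hf y, smul_mul_assoc, mul_smul_comm,
      D.mat_mul, smul_smul, ← sgn_add]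
    congr 2; ring
  have f1 : f 1 = (0, 0) := hf' _ _ (by simp [D.mat_zero])
  have hQcard : Nat.card Q = 2 ^ (2 * n + 1) := by
    rw [Nat.card_eq_of_bijective f fbij, Nat.card_prod, hcard, Nat.card_zmod, pow_succ, mul_comm]
  haveI : Finite Q := Nat.finite_of_card_ne_zero (by rw [hQcard]; positivity)
  haveI : Fintype U := Fintype.ofFinite U
  haveI : Finite K := Finite.of_injective (fun k => (fun u => ρ k u)) fun k l h =>
    hρ (LinearMap.ext fun u => congrFun h u)
  haveI : Finite (extGroup D ρ ⧸ Q) := Finite.of_injective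
    (QuotientGroup.kerLift φ) (QuotientGroup.kerLift_injective φ)
  haveI : Finite (extGroup D ρ) := Finite.of_subgroup_quotient Q
  let χ : Q →* Multiplicative U := MonoidHom.mk' (fun x => Multiplicative.ofAdd (f x).2)
    fun x y => by rw [fmul]; rfl
  have hχ : ∀ x, Multiplicative.toAdd (χ x) = (f x).2 := fun _ => rfl
  have hpol : ∀ v, v ≠ 0 → ∃ u, D.coc v u + D.coc u v ≠ 0 := by
    intro v hv
    by_contra hh
    push Not at hh
    -- the polar map is a surjection onto the dual, hence injective
    haveI : Module.Finite (ZMod 2) U := Module.Finite.of_finite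
    let T : U →ₗ[ZMod 2] Module.Dual (ZMod 2) U := (AddMonoidHom.mk' (fun w =>
      (AddMonoidHom.mk' (fun u => D.coc w u + D.coc u w) fun u u' => by
        simp only [D.coc_add_left, D.coc_add_right]; ring).toZModLinearMap 2) fun w w' => by
        refine LinearMap.ext fun u => ?_
        show D.coc (w + w') u + D.coc u (w + w') =
          (D.coc w u + D.coc u w) + (D.coc w' u + D.coc u w')
        simp only [D.coc_add_left, D.coc_add_right]; ring).toZModLinearMap 2
    have hT : Function.Surjective T := by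
      intro s
      obtain ⟨w, hw⟩ := hnd s.toAddMonoidHom
      exact ⟨w, LinearMap.ext hw⟩
    have hinj : Function.Injective T :=
      (LinearMap.injective_iff_surjective_of_finrank_eq_finrank
        Subspace.dual_finrank_eq.symm).mpr hT
    exact hv (hinj (by rw [map_zero]; exact LinearMap.ext hh))
  have hcen : χ.ker = Subgroup.center Q := by
    ext x
    rw [MonoidHom.mem_ker, Subgroup.mem_center_iff]
    constructor
    · intro hx y
      have hx' : (f x).2 = 0 := congrArg Multiplicative.toAdd hx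
      refine fbij.1 ?_
      rw [fmul, fmul, hx']
      simp only [add_zero, zero_add, add_comm (f y).1]
      rw [show D.coc (f y).2 0 = 0 by simp [Model.coc], D.coc_zero_left]
    · intro hx
      by_contra hne
      have hx' : (f x).2 ≠ 0 := fun e => hne (congrArg Multiplicative.ofAdd e)
      obtain ⟨u, hu⟩ := hpol _ hx'
      obtain ⟨y, hy⟩ := fbij.2 (0, u)
      have h := congrArg f (hx y)
      rw [fmul, fmul, hy] at h
      have h1 := congrArg Prod.fst h
      simp only [zero_add, add_zero] at h1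
      refine hu ?_
      have h2 : D.coc u (f x).2 = D.coc (f x).2 u := by linear_combination h1
      rw [h2]
      exact zmod2_double _
  have hsq : ∀ x : Q, f (x * x) = (D.form (f x).2, 0) := by
    intro x
    rw [fmul, zmod2_double, zero_add, vec_double]
    rfl
  haveI : Fact (Nat.Prime 2) := ⟨Nat.prime_two⟩
  have hsurj : Function.Surjective χ := by
    intro u
    obtain ⟨x, hx⟩ := fbij.2 (0, Multiplicative.toAdd u)
    exact ⟨x, by show Multiplicative.ofAdd (f x).2 = u; rw [hx]; rfl⟩
  have hZcard : Nat.card (Subgroup.center Q) = 2 := by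
    have h := Subgroup.card_eq_card_quotient_mul_card_subgroup χ.ker
    rw [Nat.card_congr (QuotientGroup.quotientKerEquivOfSurjective χ hsurj).toEquiv, hQcard,
      Nat.card_congr Multiplicative.toAdd, hcard, pow_succ] at h
    rw [← hcen]
    exact (Nat.eq_of_mul_eq_mul_left (by positivity) h).symm
  have hextra : Cfsg.IsExtraspecial 2 Q := by
    refine Cfsg.Agent.PGroup.isExtraspecial_of_center (IsPGroup.of_card hQcard) hZcard ?_ ?_ ?_
    · intro hh
      have htop : Subgroup.center Q = ⊤ :=
        eq_top_iff.mpr fun a _ => Subgroup.mem_center_iff.mpr fun b => hh.is_comm.comm b a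
      rw [htop, Subgroup.card_top, hQcard] at hZcard
      have h3 : 2 ^ (2 * n + 1) = 2 ^ 1 := hZcard
      have := Nat.pow_right_injective (le_refl 2) h3
      omega
    · rw [← hcen]
      exact Abelianization.commutator_subset_ker χ
    · intro x
      rw [← hcen, MonoidHom.mem_ker, pow_two]
      exact congrArg Multiplicative.ofAdd (congrArg Prod.snd (hsq x))
  let e : extGroup D ρ ⧸ Q ≃* K :=
    QuotientGroup.quotientKerEquivOfSurjective φ (proj_surjective hρ hq)
  refine ⟨extGroup D ρ, inferInstance, inferInstance, Q, inferInstance, e, χ, hextra, hQcard,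
    hsurj, hcen, fun r a => ?_, fun a => ?_⟩
  · show Multiplicative.ofAdd _ = Multiplicative.ofAdd (ρ (φ r) (f a).2)
    obtain ⟨c, hc⟩ := proj_spec hρ r (f a).2
    refine congrArg Multiplicative.ofAdd (congrArg Prod.snd
      (hf' _ ((f a).1 + c, ρ (φ r) (f a).2) ?_))
    show r.1.val * a.1.1.val * (r.1⁻¹).val = _
    rw [hf a, mul_smul_comm, hc, smul_smul, ← sgn_add, smul_mul_assoc, mul_assoc, Units.mul_inv,
      mul_one]
    try rfl
  · rw [hχ]
    constructor
    · intro h
      have h2 := hsq a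
      rw [h, f1] at h2
      exact (congrArg Prod.fst h2).symm
    · intro h
      exact fbij.1 (by rw [hsq, f1, h])

end Cfsg.Agent.Clifford
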