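import Mathlib

/-!
The real monomial model of the extraspecial 2-group of plus type and its intertwiners.
-/

set_option autoImplicit false

namespace Cfsg.Agent.Clifford

open Matrix

/-- the sign of an element of the field with two elements -/
def sgn (a : ZMod 2) : ℝ := if a = 0 then 1 else -1

@[simp] theorem sgn_zero : sgn 0 = 1 := by simp [sgn]

@[simp] theorem sgn_one : sgn 1 = -1 := by simp [sgn]

theorem zmod2_cases (a : ZMod 2) : a = 0 ∨ a = 1 := by revert a; decide

theorem sgn_add (a b : ZMod 2) : sgn (a + b) = sgn a * sgn b := by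
  rcases zmod2_cases a with rfl | rfl <;> rcases zmod2_cases b with rfl | rfl <;>
    simp [show (1 : ZMod 2) + 1 = 0 from rfl]

theorem sgn_mul_self (a : ZMod 2) : sgn a * sgn a = 1 := by
  rcases zmod2_cases a with rfl | rfl <;> simp

theorem sgn_ne_zero (a : ZMod 2) : sgn a ≠ 0 := by
  rcases zmod2_cases a with rfl | rfl <;> simp

theorem sgn_abs (a : ZMod 2) : |sgn a| = 1 := by
  rcases zmod2_cases a with rfl | rfl <;> simp

theorem sgn_injective : Function.Injective sgn := by
  intro a b h
  rcases zmod2_cases a with rfl | rfl <;> rcases zmod2_cases b with rfl | rfl <;>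
    first | rfl | (norm_num at h)

theorem zmod2_double (a : ZMod 2) : a + a = 0 := CharTwo.add_self_eq_zero a

theorem zmod2_eq_one {a : ZMod 2} (h : a ≠ 0) : a = 1 := (zmod2_cases a).resolve_left h

theorem vec_double {M : Type*} [AddCommGroup M] [Module (ZMod 2) M] (a : M) : a + a = 0 := by
  rw [← two_smul (ZMod 2) a, show (2 : ZMod 2) = 0 from rfl, zero_smul]

/-- The data of a monomial model: a projection to the index space, a bilinear form on the index
space, and the pairing. -/
structure Model (U : Type*) [AddCommGroup U] [Module (ZMod 2) U] (n : ℕ) where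
  pC : U →ₗ[ZMod 2] (Fin n → ZMod 2)
  beta : (Fin n → ZMod 2) →ₗ[ZMod 2] (Fin n → ZMod 2) →ₗ[ZMod 2] ZMod 2
  P : U →ₗ[ZMod 2] (Fin n → ZMod 2) →ₗ[ZMod 2] ZMod 2
  surj : Function.Surjective pC
  faith : ∀ u, pC u = 0 → (∀ x, P u x = 0) → u = 0
  sep : ∀ x, x ≠ 0 → ∃ u, pC u = 0 ∧ P u x ≠ 0

variable {U : Type*} [AddCommGroup U] [Module (ZMod 2) U] {n : ℕ}

namespace Model

variable (D : Model U n)

/-- the index space -/
abbrev Idx (n : ℕ) := Fin n → ZMod 2

/-- the cocycle of the model -/
def coc (u v : U) : ZMod 2 := D.beta (D.pC u) (D.pC v) + D.P v (D.pC u)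

/-- the quadratic form of the model -/
def form (u : U) : ZMod 2 := D.coc u u

theorem coc_add_left (u u' v : U) : D.coc (u + u') v = D.coc u v + D.coc u' v := by
  simp only [coc, map_add, LinearMap.add_apply]; ring

theorem coc_add_right (u v v' : U) : D.coc u (v + v') = D.coc u v + D.coc u v' := by
  simp only [coc, map_add, LinearMap.add_apply]; ring

theorem coc_zero_left (v : U) : D.coc 0 v = 0 := by simp [coc]

theorem form_zero : D.form 0 = 0 := by simp [form, coc]

theorem form_add (u v : U) : D.form (u + v) = D.form u + D.form v + (D.coc u v + D.coc v u) := by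
  simp only [form, coc_add_left, coc_add_right]; ring

/-- the monomial matrix of a vector -/
noncomputable def mat (u : U) : Matrix (Idx n) (Idx n) ℝ :=
  Matrix.of fun y x =>
    if y = x + D.pC u then sgn (D.beta (D.pC u) x + D.P u (D.pC u + x)) else 0

theorem mat_apply (u : U) (y x : Idx n) : D.mat u y x =
    if y = x + D.pC u then sgn (D.beta (D.pC u) x + D.P u (D.pC u + x)) else 0 := rfl

theorem mat_mul (u v : U) : D.mat u * D.mat v = sgn (D.coc u v) • D.mat (u + v) := by
  ext y z
  rw [Matrix.mul_apply, Finset.sum_eq_single (z + D.pC v)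
    (fun x _ hx => by rw [D.mat_apply v, if_neg hx, mul_zero])
    (fun h => absurd (Finset.mem_univ _) h)]
  rw [Matrix.smul_apply, mat_apply, mat_apply, mat_apply, if_pos rfl, map_add D.pC, smul_eq_mul,
    show z + D.pC v + D.pC u = z + (D.pC u + D.pC v) by abel]
  by_cases hy : y = z + (D.pC u + D.pC v)
  · rw [if_pos hy, if_pos hy, ← sgn_add, ← sgn_add]
    congr 1
    simp only [coc, map_add, LinearMap.add_apply]
    have h := zmod2_double (D.P v (D.pC u))
    linear_combination -h
  · rw [if_neg hy, if_neg hy, zero_mul, mul_zero]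

theorem mat_zero : D.mat 0 = 1 := by
  ext y x
  rw [mat_apply, Matrix.one_apply]
  simp

theorem mat_sq (u : U) : D.mat u * D.mat u = sgn (D.form u) • (1 : Matrix (Idx n) (Idx n) ℝ) := by
  rw [mat_mul, vec_double, mat_zero, form]

theorem trace_mat {u : U} (hu : u ≠ 0) : (D.mat u).trace = 0 := by
  rw [Matrix.trace]
  simp only [Matrix.diag, mat_apply]
  by_cases hc : D.pC u = 0
  · obtain ⟨x₀, hx₀⟩ : ∃ x, D.P u x ≠ 0 := by
      by_contra h
      push Not at h
      exact hu (D.faith u hc h)
    simp only [hc, add_zero, zero_add, if_true, map_zero, LinearMap.zero_apply]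
    have key : ∑ x, sgn (D.P u x) = - ∑ x, sgn (D.P u x) := by
      rw [← Finset.sum_neg_distrib]
      refine Fintype.sum_equiv (Equiv.addRight x₀) _ _ fun x => ?_
      simp [sgn_add, zmod2_eq_one hx₀]
    linarith
  · refine Finset.sum_eq_zero fun x _ => if_neg fun h => hc ?_
    simpa using h.symm

theorem mat_ne_zero (u : U) : D.mat u ≠ 0 := by
  intro h
  have h2 := D.mat_sq u
  rw [h, zero_mul] at h2
  have h3 := congrFun (congrFun h2 0) 0
  simp at h3
  exact sgn_ne_zero _ h3.symm

theorem mat_eq_smul {u v : U} {c : ℝ} (h : D.mat u = c • D.mat v) : u = v := by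
  by_contra hne
  have huv : u + v ≠ 0 := fun e => hne (by
    rw [← add_zero u, ← vec_double v, ← add_assoc, e, zero_add])
  have h2 : D.mat u * D.mat v = (c * sgn (D.form v)) • (1 : Matrix (Idx n) (Idx n) ℝ) := by
    rw [h, smul_mul_assoc, mat_sq, smul_smul]
  have h3 := congrArg Matrix.trace h2
  rw [mat_mul, Matrix.trace_smul, Matrix.trace_smul, trace_mat D huv, Matrix.trace_one,
    smul_zero, smul_eq_mul] at h3
  rcases mul_eq_zero.mp h3.symm with h4 | h4
  · have hc : c = 0 := by
      rcases mul_eq_zero.mp h4 with h5 | h5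
      · exact h5
      · exact absurd h5 (sgn_ne_zero _)
    exact D.mat_ne_zero u (by rw [h, hc, zero_smul])
  · simp at h4

theorem sgn_smul_mat_injective {u v : U} {a b : ZMod 2}
    (h : sgn a • D.mat u = sgn b • D.mat v) : a = b ∧ u = v := by
  have huv : u = v := by
    refine D.mat_eq_smul (c := sgn a * sgn b) ?_
    rw [← smul_smul, ← h, smul_smul, sgn_mul_self, one_smul]
  subst huv
  refine ⟨sgn_injective ?_, rfl⟩
  by_contra hne
  exact D.mat_ne_zero u ((smul_eq_zero.mp (by rw [sub_smul, h, sub_self] :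
    (sgn a - sgn b) • D.mat u = 0)).resolve_left (sub_ne_zero.mpr hne))

theorem kernel_closed {g : Matrix (Idx n) (Idx n) ℝ} {f : Idx n → ℝ} (hf : f ≠ 0)
    (hgf : g *ᵥ f = 0) (h : ∀ u, ∃ A : Matrix (Idx n) (Idx n) ℝ, g * D.mat u = A * g) :
    g = 0 := by
  classical
  have hinv : ∀ (u : U) (f' : Idx n → ℝ), g *ᵥ f' = 0 → g *ᵥ (D.mat u *ᵥ f') = 0 := by
    intro u f' hf'
    obtain ⟨A, hA⟩ := h u
    rw [mulVec_mulVec, hA, ← mulVec_mulVec, hf', mulVec_zero]
  have hmv : ∀ (u : U) (x : Idx n),
      D.mat u *ᵥ Pi.single x (1 : ℝ) =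
        sgn (D.beta (D.pC u) x + D.P u (D.pC u + x)) • Pi.single (x + D.pC u) (1 : ℝ) := by
    intro u x
    ext y
    rw [mulVec_single_one]
    simp only [Matrix.col_apply, mat_apply, Pi.smul_apply, Pi.single_apply, smul_eq_mul]
    split <;> simp
  obtain ⟨x₀, hx₀⟩ : ∃ x, f x ≠ 0 := by
    by_contra hh
    push Not at hh
    exact hf (funext hh)
  -- separate the coordinate at the point by the diagonal matrices
  have hd : ∀ (S : Finset (Idx n)), x₀ ∉ S → ∀ f' : Idx n → ℝ, g *ᵥ f' = 0 →
      ∃ f'' : Idx n → ℝ, g *ᵥ f'' = 0 ∧ (∀ x ∈ S, f'' x = 0) ∧ f'' x₀ = f' x₀ ∧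
        ∀ x, f' x = 0 → f'' x = 0 := by
    intro S
    induction S using Finset.induction_on with
    | empty => exact fun _ f' hf' => ⟨f', hf', by simp, rfl, fun _ h => h⟩
    | insert a S ha ih =>
      intro hnot f' hf'
      rw [Finset.mem_insert, not_or] at hnot
      obtain ⟨f'', hg'', hS, hx, hz⟩ := ih hnot.2 f' hf'
      obtain ⟨u, hu, hPu⟩ := D.sep (x₀ + a) (fun e => hnot.1 (by
        rw [← add_zero x₀, ← vec_double a, ← add_assoc, e, zero_add]))
      have hdiag : ∀ (e : Idx n → ℝ) x, (D.mat u *ᵥ e) x = sgn (D.P u x) * e x := by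
        intro e x
        simp only [mulVec, dotProduct, mat_apply, hu, add_zero, zero_add, map_zero,
          LinearMap.zero_apply]
        rw [Finset.sum_eq_single x (fun b _ hb => by rw [if_neg (Ne.symm hb), zero_mul])
          (fun hh => absurd (Finset.mem_univ _) hh), if_pos rfl]
      refine ⟨(1 / 2 : ℝ) • (f'' + sgn (D.P u x₀) • (D.mat u *ᵥ f'')), ?_, ?_, ?_, ?_⟩
      · rw [mulVec_smul, mulVec_add, mulVec_smul, hg'', hinv u _ hg'']; simp
      · intro x hxS
        simp only [Pi.smul_apply, Pi.add_apply, hdiag, smul_eq_mul]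
        rcases Finset.mem_insert.mp hxS with rfl | hxS
        · rw [← mul_assoc, ← sgn_add, ← map_add, zmod2_eq_one hPu, sgn_one]; ring
        · rw [hS x hxS]; ring
      · simp only [Pi.smul_apply, Pi.add_apply, hdiag, smul_eq_mul]
        rw [← mul_assoc (sgn _), sgn_mul_self, hx]; ring
      · intro x hx'
        simp only [Pi.smul_apply, Pi.add_apply, hdiag, smul_eq_mul, hz x hx']
        ring
  obtain ⟨f', hg', hS, hx', -⟩ := hd (Finset.univ.erase x₀) (by simp) f hgf
  have hf' : f' = f x₀ • Pi.single x₀ (1 : ℝ) := by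
    ext x
    by_cases hx : x = x₀
    · subst hx; simp [hx']
    · simp [hx, hS x (by simp [hx])]
  have h0 : g *ᵥ Pi.single x₀ (1 : ℝ) = 0 := by
    rw [hf', mulVec_smul] at hg'
    exact (smul_eq_zero.mp hg').resolve_left hx₀
  ext a x
  obtain ⟨u, hu⟩ := D.surj (x + x₀)
  have h1 := hinv u _ h0
  rw [hmv, hu, mulVec_smul, show x₀ + (x + x₀) = x by
    rw [add_comm x x₀, ← add_assoc, vec_double, zero_add] ] at h1
  have h2 := (smul_eq_zero.mp h1).resolve_left (sgn_ne_zero _)
  rw [mulVec_single_one] at h2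
  exact congrFun h2 a

/-- A matrix commuting with the whole model is a scalar. -/
theorem commutant {g : Matrix (Idx n) (Idx n) ℝ} (h : ∀ u, g * D.mat u = D.mat u * g) :
    ∃ c : ℝ, g = c • 1 := by
  classical
  refine ⟨g 0 0, ?_⟩
  have hoff : ∀ a x, a ≠ x → g a x = 0 := by
    intro a x hne
    obtain ⟨u, hu, hPu⟩ := D.sep (a + x) (fun e => hne (by
      rw [← add_zero a, ← vec_double x, ← add_assoc, e, zero_add]))
    have h1 := congrFun (congrFun (h u) a) x
    simp only [Matrix.mul_apply, mat_apply, hu, add_zero, zero_add, map_zero,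
      LinearMap.zero_apply] at h1
    rw [Finset.sum_eq_single x (fun b _ hb => by rw [if_neg hb, mul_zero])
      (fun hh => absurd (Finset.mem_univ _) hh),
      Finset.sum_eq_single a (fun b _ hb => by rw [if_neg (Ne.symm hb), zero_mul])
      (fun hh => absurd (Finset.mem_univ _) hh), if_pos rfl, if_pos rfl] at h1
    rw [map_add] at hPu
    have h2 : sgn (D.P u a) ≠ sgn (D.P u x) := fun e =>
      hPu (by rw [sgn_injective e, zmod2_double])
    have h3 : (sgn (D.P u x) - sgn (D.P u a)) * g a x = 0 := by linear_combination h1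
    exact (mul_eq_zero.mp h3).resolve_left (sub_ne_zero.mpr (Ne.symm h2))
  have hf : (Pi.single (0 : Idx n) (1 : ℝ) : Idx n → ℝ) ≠ 0 := by simp
  refine sub_eq_zero.mp (D.kernel_closed hf ?_ fun u => ⟨D.mat u, ?_⟩)
  · rw [sub_mulVec, smul_mulVec, one_mulVec, mulVec_single_one]
    ext a
    by_cases ha : a = 0
    · subst ha; simp
    · simp [ha, hoff a 0 ha]
  · rw [sub_mul, mul_sub, h u, smul_mul_assoc, mul_smul_comm, one_mul, mul_one]

theorem indep [Fintype U] [DecidableEq U] (a : U → ℝ) (h : ∑ u, a u • D.mat u = 0) : a 0 = 0 := by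
  have h1 := congrArg Matrix.trace h
  rw [Matrix.trace_sum, Finset.sum_eq_single 0
    (fun b _ hb => by rw [Matrix.trace_smul, D.trace_mat hb, smul_zero])
    (fun hh => absurd (Finset.mem_univ _) hh), Matrix.trace_smul, mat_zero, Matrix.trace_one,
    Matrix.trace_zero, smul_eq_mul] at h1
  rcases mul_eq_zero.mp h1 with h2 | h2
  · exact h2
  · simp at h2

/-- A second family with the same multiplication table is conjugate to the model. -/
theorem exists_intertwiner [Fintype U] [DecidableEq U] (M' : U → Matrix (Idx n) (Idx n) ℝ)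
    (h0 : M' 0 = 1) (hM : ∀ u v, M' u * M' v = sgn (D.coc u v) • M' (u + v)) :
    ∃ g : Matrix (Idx n) (Idx n) ℝ, g.det ≠ 0 ∧ ∀ v, g * D.mat v = M' v * g := by
  classical
  let g : Idx n → Idx n → Matrix (Idx n) (Idx n) ℝ := fun x y =>
    ∑ u, sgn (D.form u) • (M' u * Matrix.single x y (1 : ℝ) * D.mat u)
  have hint : ∀ x y v, g x y * D.mat v = M' v * g x y := by
    intro x y v
    simp only [g, Finset.sum_mul, Finset.mul_sum, smul_mul_assoc, mul_smul_comm]
    symm
    refine Fintype.sum_equiv (Equiv.addRight v) _ _ fun u => ?_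
    simp only [Equiv.coe_addRight]
    rw [mul_assoc (M' (u + v) * _), D.mat_mul (u + v) v, add_assoc u v v, vec_double, add_zero,
      ← mul_assoc, ← mul_assoc, hM v u, add_comm v u, mul_smul_comm, smul_mul_assoc,
      smul_mul_assoc, smul_smul, smul_smul, ← sgn_add, ← sgn_add]
    congr 2
    rw [D.form_add, D.coc_add_left]
    have h1 := zmod2_double (D.coc u v)
    have h2 := zmod2_double (D.form v)
    rw [form] at h2 ⊢
    rw [form]
    linear_combination -h1 - h2
  obtain ⟨x, y, hxy⟩ : ∃ x y, g x y ≠ 0 := by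
    by_contra hh
    push Not at hh
    have key : ∀ a : Idx n, ∑ u, (sgn (D.form u) * M' u a a) • D.mat u = 0 := by
      intro a
      ext y b
      have h1 := congrFun (congrFun (hh a y) a) b
      simp only [g, Matrix.sum_apply, Matrix.smul_apply, smul_eq_mul, Matrix.zero_apply] at h1 ⊢
      rw [← h1]
      refine Finset.sum_congr rfl fun u _ => ?_
      rw [Matrix.mul_apply, Finset.sum_eq_single y
        (fun c _ hc => by
          rw [Matrix.mul_apply, Finset.sum_eq_zero (fun d _ => by
            rw [Matrix.single_apply, if_neg (fun e => hc e.2.symm), mul_zero]), zero_mul])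
        (fun hh => absurd (Finset.mem_univ _) hh), Matrix.mul_apply,
        Finset.sum_eq_single a (fun c _ hc => by
          rw [Matrix.single_apply, if_neg (fun e => hc e.1.symm), mul_zero])
        (fun hh => absurd (Finset.mem_univ _) hh), Matrix.single_apply, if_pos ⟨rfl, rfl⟩]
      ring
    have h2 := D.indep _ (key 0)
    rw [h0, form_zero, sgn_zero, Matrix.one_apply_eq, mul_one] at h2
    exact one_ne_zero h2
  refine ⟨g x y, fun hdet => ?_, hint x y⟩
  obtain ⟨f, hf, hgf⟩ := (Matrix.exists_mulVec_eq_zero_iff).mpr hdet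
  exact hxy (D.kernel_closed hf hgf fun u => ⟨M' u, hint x y u⟩)

end Model

/-- An alternating bilinear form over the field with two elements is the polar of a quadratic
function. -/
theorem exists_split [Module.Finite (ZMod 2) U]
    (δ : U →ₗ[ZMod 2] U →ₗ[ZMod 2] ZMod 2) (halt : ∀ u, δ u u = 0) :
    ∃ s : U → ZMod 2, ∀ u v, s (u + v) = s u + s v + δ u v := by
  let bas := Module.finBasis (ZMod 2) U
  let γ : U →ₗ[ZMod 2] U →ₗ[ZMod 2] ZMod 2 :=
    bas.constr (ZMod 2) fun i => bas.constr (ZMod 2) fun j =>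
      if i < j then δ (bas i) (bas j) else 0
  have hsymm : ∀ u v, δ v u = δ u v := by
    intro u v
    have h := halt (u + v)
    simp only [map_add, LinearMap.add_apply, halt, zero_add, add_zero] at h
    exact CharTwo.add_eq_zero.mp h
  have hγ : γ + γ.flip = δ := by
    refine bas.ext fun i => bas.ext fun j => ?_
    simp only [γ, LinearMap.add_apply, LinearMap.flip_apply, Module.Basis.constr_basis]
    rcases lt_trichotomy i j with h | h | h
    · simp [h, h.not_gt]
    · subst h; simp [halt]
    · simp [h, h.not_gt, hsymm (bas i) (bas j)]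
  refine ⟨fun u => γ u u, fun u v => ?_⟩
  have h := congrArg (fun f => f u v) hγ
  simp only [LinearMap.add_apply, LinearMap.flip_apply] at h
  simp only [map_add, LinearMap.add_apply]
  rw [← h]; ring

end Cfsg.Agent.Clifford
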